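import Cfsg.Agent.SM.Sp.Enum
import Cfsg.Agent.TH.Spor.InC

/-!
# SM (S3570), sporadic socles: M12 has no subgroup of index 55 or 165 (helper26; generated by notes/SM/sp26/gen2.py.txt)
-/

set_option autoImplicit false
set_option Elab.async false

namespace Cfsg.Agent.SM.Sp.NM12

open Cfsg Cfsg.Agent.TAB.Eng Cfsg.Agent.H940.Eng Cfsg.Agent.TH.Spor

/-- the types of prime order -/
def P : List (ℕ × ℕ × ℕ) :=
  [(11, 13, 17280), (5, 7, 9504), (3, 3, 2640), (3, 4, 1760), (2, 1, 396), (2, 2, 495)]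

/-- the types -/
def Z : List Ze :=
  [(1, 2, 396, [1]), (2, 2, 495, [2]), (3, 3, 2640, [3]), (4, 3, 1760, [4]), (5, 4, 2970, [2]), (6, 4, 2970, [2]),
  (7, 5, 9504, [7]), (8, 6, 7920, [3, 1]), (9, 6, 15840, [4, 2]), (10, 8, 11880, [2]), (11, 8, 11880, [2]), (12, 10,
  9504, [7, 1]), (13, 11, 17280, [13])]

/-- certificates -/
noncomputable def CL : List (Hd × Tr) :=
  [((1728, [], []), (.far (.ofNat 1) [(.ofNat 1, 8), (.negSucc 0, 9), (.negSucc 0, 11), (.ofNat 1, 12)])), ((576, [],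
  []), (.bf 3 3 (.far (.ofNat 6) [(.ofNat 4, 3), (.ofNat 2, 5), (.ofNat 2, 6), (.ofNat 2, 7), (.ofNat 6, 8), (.ofNat
  2, 10), (.ofNat 9, 12)]) (.far (.ofNat 41) [(.ofNat 41, 8), (.negSucc 40, 9), (.ofNat 81, 12)])))]

theorem okC : okL TAB.Sm2.M12.dat (TAB.Sm2.mkRows TAB.Sm2.M12.rA TAB.Sm2.M12.rB) P Z CL = true := by decide +kernel

/-- **no subgroup of index 55 or 165** -/
theorem noIdx {K : Type} [Group K] [Finite K] (h : Spor.IsoM12 K) (Y : Subgroup K) : Y.index ≠ 55 ∧ Y.index ≠ 165 := by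
  obtain ⟨T, hm, hT, hu⟩ := in_m12 h
  have h1 := dead_of hm hu hT (by decide +kernel) (zs_of (by decide +kernel)) (by decide +kernel) okC
  have h2 : Nat.card Y * Y.index = 95040 := Y.card_mul_index.trans hm.1
  refine ⟨fun h3 => h1 (1728, [], []) List.mem_cons_self Y ?_ nofun nofun,
    fun h3 => h1 (576, [], []) (List.mem_cons_of_mem _ List.mem_cons_self) Y ?_ nofun nofun⟩
  all_goals
    rw [h3] at h2
    show Nat.card Y = _
    omega

end Cfsg.Agent.SM.Sp.NM12
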